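/-
A-groups project (S2554): the core-free quotient of `C(R)`.
-/
import Cfsg.Agent.Lib.AG.St2
import Cfsg.Agent.Lib.AG.St1a

set_option autoImplicit false

namespace Cfsg.Agent.Lib.AG

open Subgroup Cfsg.Agent.Lib.Core Cfsg.Agent.Lib.Root

universe u

namespace GamQ
variable {G : Type u} [Group G] [Finite G]

theorem j1 [IsSimpleGroup G] {t : G} {φ : J1.T →* G} (h : J1.Hyp t φ) {r : ℕ} [hp : Fact r.Prime] (hr : r = 11 ∨ r = 19)
    {P : Subgroup G} (hP : IsSyl r P ⊤) (hc : Nat.card P = r) :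
    ∃ ρ ∈ normalizer (P : Set G), ρ ∉ centralizer (P : Set G) ∧ Odd (orderOf ρ) := by
  by_contra! hn
  obtain ⟨g, hg, g1⟩ := (bot_or_exists_ne_one P).resolve_left fun e => by simp [e] at hc; omega
  have og : orderOf g = r := ((Nat.dvd_prime hp.out).1 (hc ▸ P.orderOf_dvd_natCard hg)).resolve_left (by simpa using g1)
  have c1 : (Nat.card (centralizer (P : Set G))).Coprime 30 := (h.big_coprime g1 (by
    rcases hr with rfl | rfl <;> rw [og] <;> decide)).coprime_dvd_left (card_dvd_of_le (centralizer_le (by simpa using hg)))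
  have c2 : ∀ l, l = 3 ∨ l = 5 → ¬ l ∣ Nat.card (normalizer (P : Set G)) := fun l hl d => by
    have := Fact.mk (show l.Prime by rcases hl with rfl | rfl <;> decide)
    obtain ⟨y, hy⟩ := exists_prime_orderOf_dvd_card' l d
    rw [← orderOf_coe] at hy
    have := c1.coprime_dvd_left (Subgroup.orderOf_dvd_natCard _ (by_contra fun e => hn y y.2 e (by
      rcases hl with rfl | rfl <;> rw [hy] <;> decide)))
    rw [hy] at this
    rcases hl with rfl | rfl <;> simp_all [Nat.Coprime]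
  have := isCyclic_of_prime_card hc
  have c3 : (centralizer (P : Set G)).relIndex (normalizer (P : Set G)) ∣ r - 1 := by
    rw [relIndex, ← normalizerMonoidHom_ker, index_ker, ← Nat.totient_prime hp.out, ← hc, ← IsCyclic.card_mulAut]
    exact card_subgroup_dvd_card _
  have c4 := card_mul_relIndex (centralizer_le_normalizer (P : Set G))
  have c5 : r ∣ Nat.card (centralizer (P : Set G)) := hc ▸ card_dvd_of_le (le_centralizer P)
  obtain ⟨P, rfl⟩ := hP.exists_sylow_top
  have c6 := card_sylow_modEq_one r G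
  have c7 := (normalizer ((P : Subgroup G) : Set G)).card_mul_index
  rw [h.card_G, ← c4] at c7
  rw [P.card_eq_index_normalizer, ← Sylow.coe_coe] at c6
  rw [← c4] at c2
  generalize (normalizer ((P : Subgroup G) : Set G)).index = n at *
  generalize Nat.card (centralizer ((P : Subgroup G) : Set G)) = c at *
  generalize (centralizer ((P : Subgroup G) : Set G)).relIndex _ = a at *
  have c8 : c ∣ 1463 := (c1.pow_right 3).dvd_of_dvd_mul_left
    (((dvd_mul_right c (a * n)).trans (mul_assoc c a n ▸ c7).dvd).trans (by decide))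
  have c9 : a ∣ 2 := by
    have h3 : ¬ 3 ∣ a := fun e => c2 3 (.inl rfl) (e.mul_left c)
    have h5 : ¬ 5 ∣ a := fun e => c2 5 (.inr rfl) (e.mul_left c)
    have := Nat.le_of_dvd (by omega) c3
    rcases hr with rfl | rfl <;> interval_cases a <;> omega
  have k : ∀ c ∈ Nat.divisors 1463, ∀ a ∈ Nat.divisors 2, ∀ r ∈ [11, 19], r ∣ c → 175560 / (c * a) % r ≠ 1 := by decide +kernel
  refine k c (by simp [c8]) a (by simp [c9]) r (by simpa using hr) c5 ?_
  rw [← c7, Nat.mul_div_cancel_left _ (Nat.pos_of_mul_pos_right (by rw [c7]; decide)), c6, Nat.mod_eq_of_lt hp.out.one_lt]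

end GamQ

theorem gamQ {Q : Type u} [Group Q] [Finite Q] (hA : AG Q) (hO : OppOf 2 (⊤ : Subgroup Q) = ⊥)
    (hk : ∀ L : Subgroup Q, Comp ⊤ L → Kn L) {S : Subgroup Q} (hS : IsSyl 2 S ⊤) (h8 : Nat.card S = 8)
    (hsq : ∀ x ∈ S, x * x = 1) {t w : Q} (ht : t ∈ S) (t1 : t ≠ 1)
    (tr : ∀ x ∈ S, x ≠ 1 → ∃ g ∈ normalizer (S : Set Q), g * t * g⁻¹ = x) (wN : w ∈ normalizer (S : Set Q))
    (wt : t * w = w * t) (w3 : w ^ 3 = 1) (wS : w ∉ centralizer (S : Set Q)) {r : ℕ} [hp : Fact r.Prime]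
    (hr : ¬ r ∣ Nat.card (centralizer ({t} : Set Q))) {P : Subgroup Q} (hP : IsSyl r P ⊤) (P1 : P ≠ ⊥) :
    Nat.card P = r ∧ ∃ ρ ∈ normalizer (P : Set Q), ρ ∉ centralizer (P : Set Q) ∧ Odd (orderOf ρ) := by
  have ow : orderOf w = 3 := orderOf_eq_prime w3 fun e => wS (e ▸ one_mem _)
  have r3 : r ≠ 3 := fun e => hr (e ▸ ow ▸ Subgroup.orderOf_dvd_natCard _ (mem_C.2 wt))
  have cN := J1.card_eq_orbit_mul (normalizer (S : Set Q)) t
  rw [show {y | ∃ k ∈ normalizer (S : Set Q), k * t * k⁻¹ = y} = (S : Set Q) \ {1} from Set.ext fun y =>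
    ⟨fun ⟨k, hk, e⟩ => e ▸ ⟨conj_mem_of_mem_normalizer hk ht, by simpa using t1⟩, fun h => tr y h.1 h.2⟩,
    Set.ncard_sdiff_singleton_of_mem (one_mem S), ← J1.card_eq_ncard, h8] at cN
  have cG := J1.card_eq_orbit_mul (⊤ : Subgroup Q) t
  rw [top_inf_eq] at cG
  generalize hm : {y | ∃ k ∈ (⊤ : Subgroup Q), k * t * k⁻¹ = y}.ncard = m at cG
  have dm : r ∣ m := ((Nat.Prime.dvd_mul hp.out).1 (cG ▸ (dvd_card_of_isPGroup_of_ne_bot hP.isPGroup P1).trans
    (card_dvd_of_le le_top))).resolve_right hr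
  have cP : ¬ r ^ 2 ∣ m → Nat.card P = r := fun h => by
    obtain ⟨k, hk⟩ := IsPGroup.iff_card.1 hP.isPGroup
    have d : r ^ k ∣ m := (Nat.Coprime.pow_left k ((Nat.Prime.coprime_iff_not_dvd hp.out).2 hr)).dvd_of_dvd_mul_right
      (cG ▸ hk ▸ card_dvd_of_le le_top)
    rcases k with _ | _ | k
    · exact absurd (card_eq_one.1 hk) P1
    · simpa using hk
    · exact absurd ((pow_dvd_pow r (by omega)).trans d) h
  have seven : r = 7 → Nat.card P = r → ∃ ρ ∈ normalizer (P : Set Q), ρ ∉ centralizer (P : Set Q) ∧ Odd (orderOf ρ) := by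
    rintro rfl h7
    obtain ⟨P0, h0⟩ := exists_isSyl (p := 7) (normalizer (S : Set Q))
    have c0 : 7 ≤ Nat.card P0 := Nat.le_of_dvd Nat.card_pos
      (dvd_card_of_isPGroup_of_ne_bot h0.isPGroup (h0.ne_bot (cN ▸ dvd_mul_right _ _)))
    obtain ⟨g, -, rfl⟩ := (hP.of_card_le h0.isPGroup le_top (h7 ▸ c0)).exists_conj hP
    rw [card_map_conj] at h7
    by_contra! hn
    have b := burnside_sup h0 fun n ⟨n1, n2⟩ => by_contra fun e => hn (g * n * g⁻¹)
      (by rw [← map_conj_normalizer]; exact ⟨n, n2, rfl⟩) (by rwa [← map_conj_centralizer, mem_map_conj, ← mul_assoc,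
        ← mul_assoc, inv_mul_cancel, one_mul, inv_mul_cancel_right]) (by
      rw [show orderOf (g * n * g⁻¹) = _ from (MulAut.conj g).orderOf_eq n]
      refine Nat.not_even_iff_odd.1 fun d => ?_
      have o := orderOf_pow_orderOf_div (orderOf_pos n).ne' d.two_dvd
      have m1 := pow_mem n1 (orderOf n / 2)
      have m2 := pow_mem n2 (orderOf n / 2)
      generalize n ^ (orderOf n / 2) = s at *
      have hs : s ∈ S := hS.le_of_le_normalizer' (isPGroup_zpowers (k := 1) (by rw [pow_one, ← o, pow_orderOf_eq_one]))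
        le_top (zpowers_le.2 m1) (mem_zpowers s)
      obtain ⟨k, -, hk⟩ := tr s hs fun e => by simp [e] at o
      refine hr (h7 ▸ (card_dvd_of_le (K := centralizer {s}) fun y hy => mem_C.2 ?_).trans
        (by rw [← hk, ← map_conj_centralizer_singleton, card_map_conj]))
      have : s * y * s⁻¹ * y⁻¹ ∈ S ⊓ P0 := ⟨by
        simpa [mul_assoc] using S.mul_mem hs (conj_mem_of_mem_normalizer (h0.le hy) (S.inv_mem hs)),
        P0.mul_mem (conj_mem_of_mem_normalizer m2 hy) (P0.inv_mem hy)⟩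
      rw [disjoint_iff.1 (disjoint_of_coprime_natCard (by rw [h8, h7]; decide)), mem_bot] at this
      rwa [mul_inv_eq_one, mul_inv_eq_iff_eq_mul] at this)
    have n7 : ¬ 7 ∣ Nat.card ↥(normalizer (S : Set Q) ⊓ centralizer {t}) := fun e => hr (e.trans (card_dvd_of_le inf_le_right))
    have hU := le_normalizer_OppOf (p := 7) (le_normalizer (H := normalizer (S : Set Q)))
    have c1 := card_sup_mul_card_inf (h0.le.trans hU)
    rw [sup_comm, b, eq_bot_of_isPGroup_of_not_dvd (h0.isPGroup.to_le inf_le_left) fun e =>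
      OppOf_not_dvd _ (e.trans (card_dvd_of_le inf_le_right)), card_bot, h7, cN] at c1
    have c2 := card_mul_relIndex (OppOf_le (p := 7) (normalizer (S : Set Q)))
    have e : normalizer (S : Set Q) ⊓ centralizer {t} = OppOf 7 (normalizer (S : Set Q)) :=
      eq_of_le_of_card_ge (fun x hx => mem_of_coprime_relIndex hU hx.1 (by
        rw [show (OppOf 7 (normalizer (S : Set Q))).relIndex (normalizer (S : Set Q)) = 7 from
          Nat.eq_of_mul_eq_mul_left Nat.card_pos (by rw [c2, cN]; omega)]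
        exact coprime_iff_not_dvd.2 fun e => n7 (e.trans (orderOf_dvd_natCard _ hx)))) (by omega)
    refine wS fun x hx => (eq_or_ne x 1).elim (fun e => by simp [e]) fun x1 => ?_
    obtain ⟨k, hk, rfl⟩ := tr x hx x1
    have := mem_C.1 (e.ge (conj_mem_of_mem_normalizer' (hU hk) (e.le ⟨wN, mem_C.2 wt⟩))).2
    simpa [mul_assoc] using congrArg (k * · * k⁻¹) this
  have fin : m ∣ 63 → Nat.card P = r ∧ ∃ ρ ∈ normalizer (P : Set Q), ρ ∉ centralizer (P : Set Q) ∧ Odd (orderOf ρ) :=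
    fun h => by
      have r7 : r = 7 := by
        have := Nat.le_of_dvd (by decide) (dm.trans h)
        have := hp.out
        have := dm.trans h
        interval_cases r <;> first | omega | contradiction
      have := cP fun e => absurd (r7 ▸ e.trans h) (by decide)
      exact ⟨this, seven r7 this⟩
  by_cases hc : ∃ K : Subgroup Q, Comp ⊤ K
  swap
  · refine fin ?_
    have : normalizer (S : Set Q) = ⊤ := by
      rw [← hS.eq_of_le (OpOf_isPGroup ⊤) (St1.syl_le hA hO hS (fun L h => absurd ⟨L, h⟩ hc) le_rfl) le_top]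
      exact top_le_iff.1 (le_normalizer_OpOf le_normalizer)
    rw [this, top_inf_eq, cG] at cN
    rw [Nat.eq_of_mul_eq_mul_right Nat.card_pos cN]; decide
  obtain ⟨K, hK⟩ := hc
  have sy : ∀ {K : Subgroup Q}, Comp ⊤ K → IsSyl 2 ((S ⊓ K).subgroupOf K) ⊤ := fun h => by
    simpa using (hS.inf_subn h.subn).subgroupOf le_rfl
  have four : ∀ {K : Subgroup Q}, Comp ⊤ K → 4 ≤ Nat.card ↥(S ⊓ K) := fun h =>
    card_subgroupOf (inf_le_right (a := S)) ▸ ((hk _ h).dat (hA.subgroup _) (sy h)).2.1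
  have hn : ∀ g, g ∈ normalizer (K : Set Q) := fun g => by_contra fun e => by
    have h1 := hK.conj (g := g) (le_normalizer (mem_top g))
    have h2 := h1.le_centralizer_of_ne hK fun e' => e (map_conj_eq_iff.1 e')
    have h4 := card_sup_mul_card_inf (hA.le_centralizer hS.isPGroup (inf_le_left (b := K))
      (inf_le_left (b := K.map (MulAut.conj g).toMonoidHom)) |>.trans (centralizer_le_normalizer _))
    rw [show S ⊓ K ⊓ (S ⊓ K.map (MulAut.conj g).toMonoidHom) = ⊥ from eq_bot_iff.2 fun x hx =>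
      (hA.inf_centralizer_of_perfect hK.qs.perfect).le ⟨hx.1.2, h2 hx.2.2⟩, card_bot, mul_one] at h4
    have h5 := card_le_of_le (sup_le inf_le_left inf_le_left : S ⊓ K ⊔ S ⊓ K.map (MulAut.conj g).toMonoidHom ≤ S)
    have := Nat.mul_le_mul (four hK) (four h1)
    omega
  have tK : t ∈ K := by
    obtain ⟨x, hx, x1⟩ := (bot_or_exists_ne_one (S ⊓ K)).resolve_left fun e => by simpa [e] using four hK
    obtain ⟨g, -, rfl⟩ := tr x hx.1 x1
    simpa [mul_assoc] using conj_mem_of_mem_normalizer' (hn g) hx.2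
  have SK : S ≤ K := fun x hx => (eq_or_ne x 1).elim (fun e => e ▸ one_mem K) fun x1 => by
    obtain ⟨g, -, rfl⟩ := tr x hx x1
    exact conj_mem_of_mem_normalizer (hn g) tK
  have sy' := sy hK
  rw [inf_eq_left.2 SK] at sy'
  have c8 := (card_subgroupOf SK).trans h8
  have aK := hA.subgroup K
  have t1' : (⟨t, tK⟩ : K) ≠ 1 := by simpa using t1
  have cK := J1.card_eq_orbit_mul K t
  have : {y | ∃ k ∈ K, k * t * k⁻¹ = y} = {y | ∃ k ∈ (⊤ : Subgroup Q), k * t * k⁻¹ = y} :=
    Set.ext fun y => ⟨fun ⟨k, _, e⟩ => ⟨k, trivial, e⟩, fun ⟨g, _, e⟩ => by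
      obtain ⟨k, hk', n, hn', rfl⟩ := (hS.mono SK le_top).frattini (H := ⊤) (fun g _ => hn g) (mem_top g)
      obtain ⟨-, -, -, D, -, -, -, h1, -⟩ := (hk K hK).dat aK sy'
      have := conj_mem_of_mem_normalizer hn' ht
      obtain ⟨d, -, hd⟩ := h1 ⟨t, tK⟩ ht ⟨_, SK this⟩ this t1' (by simpa using t1)
      refine ⟨k * d, mul_mem hk' d.2, ?_⟩
      rw [← e, show k * n * t * (k * n)⁻¹ = k * (n * t * n⁻¹) * k⁻¹ by group,
        ← show (d : Q) * t * (d : Q)⁻¹ = n * t * n⁻¹ from congrArg Subtype.val hd]; group⟩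
  rw [this, hm, ← card_subgroupOf inf_le_left, inf_subgroupOf_left,
    show (centralizer {t}).subgroupOf K = centralizer {(⟨t, tK⟩ : K)} from by
      ext y; simp only [mem_subgroupOf, mem_C, Subtype.ext_iff, coe_mul]] at cK
  rcases hk K hK with h | h | h
  · obtain ⟨D, j, h⟩ := h.dat aK sy'
    rw [h.cent ⟨t, tK⟩ ht t1', h.cardG, c8] at cK
    exact fin (by rw [show m = 63 by omega])
  · exact absurd (c8 ▸ h.card_syl sy') (by decide)
  · have := h.1
    obtain ⟨t', φ, h'⟩ := h.hyp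
    rw [St2.card_cent_TC aK h (Subtype.ext (hsq t ht)) t1', h'.card_G] at cK
    obtain rfl : m = 1463 := by omega
    have h3 : r = 7 ∨ r = 11 ∨ r = 19 := by
      have := (show r ∣ 7 * (11 * 19) from dm)
      simp only [hp.out.dvd_mul] at this
      exact this.imp (Nat.prime_dvd_prime_iff_eq hp.out (by decide)).1
        (Or.imp (Nat.prime_dvd_prime_iff_eq hp.out (by decide)).1 (Nat.prime_dvd_prime_iff_eq hp.out (by decide)).1)
    have c := cP (by rcases h3 with rfl | rfl | rfl <;> decide)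
    refine ⟨c, h3.elim (seven · c) fun h3 => ?_⟩
    have h4 := hP.inf_normal (N := K) le_top fun g _ => hn g
    have PK : P ≤ K := inf_eq_left.1 (eq_of_le_of_card_ge inf_le_left (c ▸ Nat.le_of_dvd Nat.card_pos
      (dvd_card_of_isPGroup_of_ne_bot h4.isPGroup (h4.ne_bot (by rw [h'.card_G]; exact dm.trans (by decide))))))
    obtain ⟨ρ, h5, h6, h7⟩ := GamQ.j1 h' h3 (P := P.subgroupOf K) (by simpa using (hP.mono PK le_top).subgroupOf le_rfl)
      ((card_subgroupOf PK).trans c)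
    rw [← subgroupOf_normalizer_eq PK] at h5
    rw [← subgroupOf_centralizer_eq PK] at h6
    exact ⟨ρ, h5, h6, by rwa [orderOf_coe]⟩

end Cfsg.Agent.Lib.AG
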